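import Cfsg.Agent.H663.GmnExc
import Cfsg.Agent.PermutationGroups.OnanScott
import Cfsg.Prelude.Def_ParabolicCharacters

/-!
# Products of self-normalizing subgroups of the factors of `N = T₁ × ... × T_m` (helper940, TEAM B0-RAT, S4891)

`e : N ≃* ∀ i, T i` coordinates, `Q i ≤ T i`; `D0 e Q` is the product of the `Q i`, `HH e Q` its normalizer in `G`.

* `frattini` : `G = N * HH e Q` if the classes of the `Q i` are permuted by `G`;
* `subgroupOf_HH` : `HH e Q ∩ N = D0 e Q` if the `Q i` are self-normalizing;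
* `fixedPointCharacter_of_frattini`, `index_of_frattini` : restriction of the permutation character.
-/

set_option autoImplicit false
set_option linter.unusedSectionVars false

open Cfsg

namespace Cfsg.Agent.H940.RatB

open Cfsg.Agent.H663.GmnStep

universe u

section quot

variable {G : Type u} [Group G]

/-- the natural map `N / (N ∩ H) → G / H` -/
def qmap (N H : Subgroup G) : N ⧸ H.subgroupOf N → G ⧸ H :=
  Quotient.map' (fun n => (n : G)) fun a b h => by
    rw [QuotientGroup.leftRel_apply] at h ⊢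
    exact h

theorem qmap_mk (N H : Subgroup G) (n : N) : qmap N H (QuotientGroup.mk n) = QuotientGroup.mk (n : G) := rfl

theorem qmap_smul (N H : Subgroup G) (n : N) (x : N ⧸ H.subgroupOf N) : qmap N H (n • x) = (n : G) • qmap N H x := by
  induction x using QuotientGroup.induction_on with
  | _ a => rfl

theorem qmap_bijective (N H : Subgroup G) (h : ∀ g : G, ∃ n : N, (n : G)⁻¹ * g ∈ H) :
    Function.Bijective (qmap N H) := by
  constructor
  · intro x y
    induction x using QuotientGroup.induction_on with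
    | _ a =>
    induction y using QuotientGroup.induction_on with
    | _ b =>
    intro hab
    rw [qmap_mk, qmap_mk, QuotientGroup.eq] at hab
    rw [QuotientGroup.eq]
    exact hab
  · intro x
    induction x using QuotientGroup.induction_on with
    | _ g =>
    obtain ⟨n, hn⟩ := h g
    exact ⟨QuotientGroup.mk n, by rw [qmap_mk, QuotientGroup.eq]; exact hn⟩

/-- restriction of the permutation character to a supplement -/
theorem fixedPointCharacter_of_frattini (N H : Subgroup G) (h : ∀ g : G, ∃ n : N, (n : G)⁻¹ * g ∈ H) (n : N) :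
    fixedPointCharacter H (n : G) = fixedPointCharacter (H.subgroupOf N) n := by
  unfold fixedPointCharacter
  congr 1
  let φ := Equiv.ofBijective _ (qmap_bijective N H h)
  refine (Nat.card_congr (φ.subtypeEquiv fun x => ?_)).symm
  show n • x = x ↔ (n : G) • qmap N H x = qmap N H x
  rw [← qmap_smul]
  exact ⟨fun e => by rw [e], fun e => (qmap_bijective N H h).1 e⟩

theorem index_of_frattini (N H : Subgroup G) (h : ∀ g : G, ∃ n : N, (n : G)⁻¹ * g ∈ H) :
    H.index = (H.subgroupOf N).index :=
  (Nat.card_congr (Equiv.ofBijective _ (qmap_bijective N H h))).symm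

end quot

section coord

variable {G : Type u} [Group G] {N : Subgroup G} [hN : N.Normal] {m : ℕ} {T : Fin m → Subgroup G}

/-- the product of the `Q i` -/
def D0 (e : N ≃* ∀ i, T i) (Q : ∀ i, Subgroup (T i)) : Subgroup N := (Subgroup.pi Set.univ Q).comap e.toMonoidHom

theorem mem_D0 {e : N ≃* ∀ i, T i} {Q : ∀ i, Subgroup (T i)} {n : N} : n ∈ D0 e Q ↔ ∀ i, e n i ∈ Q i := by
  unfold D0
  rw [Subgroup.mem_comap, Subgroup.mem_pi]
  exact ⟨fun h i => h i (Set.mem_univ i), fun h i _ => h i⟩

/-- the normalizer in `G` of the product of the `Q i` -/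
def HH (e : N ≃* ∀ i, T i) (Q : ∀ i, Subgroup (T i)) : Subgroup G where
  carrier := {g | ∀ n : N, n ∈ D0 e Q ↔ MulAut.conjNormal g n ∈ D0 e Q}
  mul_mem' {a b} ha hb n := by
    rw [hb n, ha, map_mul, MulAut.mul_apply]
  one_mem' n := by rw [map_one, MulAut.one_apply]
  inv_mem' {a} ha n := by
    rw [ha (MulAut.conjNormal a⁻¹ n), ← MulAut.mul_apply, ← map_mul, mul_inv_cancel, map_one, MulAut.one_apply]

theorem mem_HH {e : N ≃* ∀ i, T i} {Q : ∀ i, Subgroup (T i)} {g : G} :
    g ∈ HH e Q ↔ ∀ n : N, n ∈ D0 e Q ↔ MulAut.conjNormal g n ∈ D0 e Q := Iff.rfl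

/-- the `Q i` as subgroups of `G` -/
def QG (Q : ∀ i, Subgroup (T i)) (i : Fin m) : Subgroup G := (Q i).map (T i).subtype

theorem coe_mem_QG {Q : ∀ i, Subgroup (T i)} {i : Fin m} {t : T i} : (t : G) ∈ QG Q i ↔ t ∈ Q i :=
  Subgroup.mem_map_iff_mem (T i).subtype_injective

variable {e : N ≃* ∀ i, T i}

/-- **Frattini argument.** -/
theorem frattini (hc : IsCoord e) (Q : ∀ i, Subgroup (T i))
    (hcls : ∀ (g : G) (i j : Fin m), T j = (T i).map (MulAut.conj g).toMonoidHom →
      ∃ t ∈ T j, ∀ x ∈ T i, x ∈ QG Q i ↔ t⁻¹ * (g * x * g⁻¹) * t ∈ QG Q j) (g : G) :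
    ∃ n : N, (n : G)⁻¹ * g ∈ HH e Q := by
  have h1 : ∀ j, ∃ i, T j = (T i).map (MulAut.conj g).toMonoidHom := by
    intro j
    obtain ⟨i, hi⟩ := (hc.sg_bij g).2 j
    exact ⟨i, by rw [← hi]; exact hc.T_sg g i⟩
  choose s hs using h1
  have hsurj : Function.Surjective s := by
    intro i
    refine ⟨hc.sg g i, ?_⟩
    have h2 := hs (hc.sg g i)
    rw [hc.T_sg g i] at h2
    exact (hc.inj (Subgroup.map_injective (MulAut.conj g).injective h2)).symm
  have h2 : ∀ j, ∃ t ∈ T j, ∀ x ∈ T (s j), x ∈ QG Q (s j) ↔ t⁻¹ * (g * x * g⁻¹) * t ∈ QG Q j :=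
    fun j => hcls g (s j) j (hs j)
  choose t ht htx using h2
  refine ⟨e.symm fun j => ⟨t j, ht j⟩, ?_⟩
  rw [mem_HH]
  intro x
  set n : N := e.symm fun j => ⟨t j, ht j⟩ with hn
  have h3 : ∀ j, (e (MulAut.conjNormal ((n : G)⁻¹ * g) x) j : G) = (t j)⁻¹ * (g * (e x (s j) : G) * g⁻¹) * t j := by
    intro j
    have h4 : MulAut.conjNormal ((n : G)⁻¹ * g) x = n⁻¹ * MulAut.conjNormal g x * n := by
      apply Subtype.ext
      simp only [MulAut.conjNormal_apply, Subgroup.coe_mul, Subgroup.coe_inv]
      group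
    rw [h4, map_mul, map_mul, map_inv, Pi.mul_apply, Pi.mul_apply, Pi.inv_apply, Subgroup.coe_mul, Subgroup.coe_mul,
      Subgroup.coe_inv, coord_conj hc g (s j) j (hs j) x, hn, MulEquiv.apply_symm_apply]
  rw [mem_D0, mem_D0]
  constructor
  · intro h j
    rw [← coe_mem_QG, h3, ← htx j _ (e x (s j)).2, coe_mem_QG]
    exact h (s j)
  · intro h i
    obtain ⟨j, rfl⟩ := hsurj i
    rw [← coe_mem_QG, htx j _ (e x (s j)).2, ← h3, coe_mem_QG]
    exact h j

/-- the normalizer of the product of self-normalizing subgroups meets `N` in the product -/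
theorem subgroupOf_HH (Q : ∀ i, Subgroup (T i)) (hQ : ∀ i, Subgroup.normalizer (Q i : Set (T i)) = Q i) :
    (HH e Q).subgroupOf N = D0 e Q := by
  classical
  ext x
  rw [Subgroup.mem_subgroupOf, mem_HH]
  have hx : ∀ n : N, MulAut.conjNormal (x : G) n = x * n * x⁻¹ := fun n => Subtype.ext (by simp)
  constructor
  · intro h
    rw [mem_D0]
    intro i
    rw [← hQ i, Subgroup.mem_normalizer_iff]
    intro q
    have h1 := h (e.symm (Pi.mulSingle i q))
    rw [hx] at h1
    have h2 : (e.symm (Pi.mulSingle i q) : N) ∈ D0 e Q ↔ q ∈ Q i := by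
      rw [mem_D0, MulEquiv.apply_symm_apply]
      constructor
      · intro h3
        have := h3 i
        rwa [Pi.mulSingle_eq_same] at this
      · intro h3 k
        by_cases hk : k = i
        · subst hk
          rwa [Pi.mulSingle_eq_same]
        · rw [Pi.mulSingle_eq_of_ne hk]
          exact (Q k).one_mem
    have h3 : x * (e.symm (Pi.mulSingle i q) : N) * x⁻¹ ∈ D0 e Q ↔ e x i * q * (e x i)⁻¹ ∈ Q i := by
      rw [mem_D0]
      have h4 : ∀ k, e (x * (e.symm (Pi.mulSingle i q) : N) * x⁻¹) k = e x k * (Pi.mulSingle i q : ∀ i, T i) k * (e x k)⁻¹ := by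
        intro k
        rw [map_mul, map_mul, map_inv, MulEquiv.apply_symm_apply]
        rfl
      constructor
      · intro h5
        have := h5 i
        rwa [h4, Pi.mulSingle_eq_same] at this
      · intro h5 k
        rw [h4]
        by_cases hk : k = i
        · subst hk
          rwa [Pi.mulSingle_eq_same]
        · rw [Pi.mulSingle_eq_of_ne hk, mul_one, mul_inv_cancel]
          exact (Q k).one_mem
    rw [← h2, h1, h3]
  · intro h n
    rw [hx]
    constructor
    · intro hn
      exact (D0 e Q).mul_mem ((D0 e Q).mul_mem h hn) ((D0 e Q).inv_mem h)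
    · intro hn
      have := (D0 e Q).mul_mem ((D0 e Q).mul_mem ((D0 e Q).inv_mem h) hn) h
      have e1 : x⁻¹ * (x * n * x⁻¹) * x = n := by group
      rwa [e1] at this

/-- `p` divides the index of the product if it divides the index of one factor -/
theorem dvd_index_D0 {p : ℕ} (Q : ∀ i, Subgroup (T i)) (i : Fin m) (h : p ∣ (Q i).index) : p ∣ (D0 e Q).index := by
  let f : N →* T i := (Pi.evalMonoidHom _ i).comp e.toMonoidHom
  have hf : Function.Surjective f := by
    classical
    intro t
    refine ⟨e.symm (Pi.mulSingle i t), ?_⟩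
    show e (e.symm (Pi.mulSingle i t)) i = t
    rw [MulEquiv.apply_symm_apply, Pi.mulSingle_eq_same]
  have h1 : D0 e Q ≤ (Q i).comap f := fun n hn => mem_D0.1 hn i
  refine dvd_trans ?_ (Subgroup.index_dvd_of_le h1)
  rw [Subgroup.index_comap_of_surjective _ hf]
  exact h

end coord

end Cfsg.Agent.H940.RatB
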